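import Cfsg.Agent.Lib.CoTwoUnitary.Data
import Cfsg.Agent.Lib.SporOutCo2.Data
import Cfsg.Agent.Lib.SporPres.FiTwentyTwo.UnitData

/-! The words follow the transvections on the isotropic points. -/

set_option autoImplicit false
set_option maxRecDepth 100000

namespace Cfsg.Agent.Lib.CoTwoUnitary

open Cfsg.Agent.Lib.Coset Cfsg.Agent.Lib.SporOutCo2
open Cfsg.Agent.Lib.SporPres.FiTwentyTwo.Unit (tabU)

/-- A word sends the points of each plane as a transvection does. -/
noncomputable def matchOK (g : ℕ) (wd : List ℕ) : Bool :=
  (List.range 4600).all fun t =>
    match incT.get t with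
    | none => true
    | some L =>
      match incT.get (tab.app wd t) with
      | none => false
      | some M => L.all fun i => M.any fun j => Nat.beq j (tabU.act g i)

/-- The word of a transvection. -/
def tvW (g : ℕ) : List ℕ := tvWords.getD g []

theorem match0 : matchOK 0 (tvW 0) = true := by decide +kernel

theorem match1 : matchOK 1 (tvW 1) = true := by decide +kernel

theorem match2 : matchOK 2 (tvW 2) = true := by decide +kernel

theorem match3 : matchOK 3 (tvW 3) = true := by decide +kernel

theorem match4 : matchOK 4 (tvW 4) = true := by decide +kernel

theorem match5 : matchOK 5 (tvW 5) = true := by decide +kernel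

theorem match6 : matchOK 6 (tvW 6) = true := by decide +kernel

theorem match7 : matchOK 7 (tvW 7) = true := by decide +kernel

/-- Two planes meet in one point. -/
noncomputable def meetOK (i : ℕ) (q : ℕ × ℕ) : Bool :=
  decide (q.1 < 4600) && decide (q.2 < 4600) &&
    match incT.get q.1, incT.get q.2 with
    | some L, some M =>
      L.any (fun j => Nat.beq j i) && M.any (fun j => Nat.beq j i) &&
        L.all fun j => Nat.beq j i || !M.any fun k => Nat.beq k j
    | _, _ => false

theorem meet_all : ((List.range 693).all fun i => meetOK i (witList.getD i (0, 0))) = true := by decide +kernel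

theorem tvW_ok : ((List.range 8).all fun g =>
    ((tvW g).all fun a => decide (a < tab.gens)) && Nat.beq (tab.app (tvW g) 0) 0) = true := by decide +kernel

end Cfsg.Agent.Lib.CoTwoUnitary
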