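import Cfsg.Agent.Lib.CoTwoUnitary.Rep
import Cfsg.Agent.Lib.CoTwoUnitary.Checks
import Cfsg.Agent.Lib.SporOutCo2.Main
import Cfsg.Agent.Lib.SporPres.FiTwentyTwo.UnitSpace
import Cfsg.Agent.Lib.Classical.UnitaryFourThree

/-! The stabilizer of two minimal vectors of inner product minus sixteen is PSU(6, 2). -/

set_option autoImplicit false
set_option maxRecDepth 100000

namespace Cfsg.Agent.Lib.CoTwoUnitary

open Cfsg Cfsg.Agent.Lib.Coset Cfsg.Agent.Lib.Leech Golay Cfsg.Agent.Lib.SporOutCo2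
open Cfsg.Agent.Lib.SporPres.FiTwentyTwo
open scoped Pointwise

/-- The points of a plane. -/
noncomputable def inc (t : ℕ) : List ℕ := (incT.get t).getD []

/-- The second vector. -/
def xVec : ↥leechLattice := ⟨toVec start, start_mem⟩

theorem xVec_mem : xVec ∈ dotSet uVec 16 := ⟨SporOutCo2.start_facts.1, SporOutCo2.start_facts.2.1⟩

/-- The joint stabilizer. -/
noncomputable abbrev joint : Subgroup ↥Co0 :=
  MulAction.stabilizer ↥Co0 uVec ⊓ MulAction.stabilizer ↥Co0 xVec

theorem fills : ∀ y ∈ dotSet uVec 16, ∃ k ∈ MulAction.stabilizer ↥Co0 uVec, k • xVec = y :=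
  orbit_fills orbit_ok (MulAction.stabilizer ↥Co0 uVec) (fun g hg => SporOutCo2.gens_fix g hg) (x := xVec) rfl
    (by show sqNorm (toVec start) ≤ 64; rw [SporOutCo2.start_facts.1]; norm_num) (dotSet uVec 16) ncard_pts
    (fun k hk => smul_dotSet k hk xVec_mem)

theorem card_joint : Nat.card ↥joint = 9196830720 := by
  set K := MulAction.stabilizer ↥Co0 uVec
  have horb : (MulAction.orbit ↥K xVec).ncard = 4600 := by
    rw [← ncard_pts]
    congr 1
    ext y
    constructor
    · rintro ⟨k, rfl⟩; exact smul_dotSet (k : ↥Co0) k.2 xVec_mem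
    · intro hy
      obtain ⟨k, hk, e⟩ := fills y hy
      exact ⟨⟨k, hk⟩, e⟩
  have h := Subgroup.card_mul_index (MulAction.stabilizer ↥K xVec)
  rw [MulAction.index_stabilizer, horb, card_stab_uVec] at h
  have hc : Nat.card ↥joint = Nat.card ↥(MulAction.stabilizer ↥K xVec) :=
    Nat.card_congr ⟨fun g => ⟨⟨g.1, g.2.1⟩, g.2.2⟩, fun g => ⟨g.1.1, g.1.2, g.2⟩, fun _ => rfl, fun _ => rfl⟩
  omega

theorem match_spec {g : ℕ} {wd : List ℕ} (h : matchOK g wd = true) (t : ℕ) (ht : t < 4600) (i : ℕ)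
    (hi : i ∈ inc t) : Unit.tabU.act g i ∈ inc (tab.app wd t) := by
  simp only [matchOK, List.all_eq_true, List.mem_range] at h
  have h1 := h t ht
  simp only [inc] at hi ⊢
  cases e1 : incT.get t with
  | none => rw [e1] at hi; simp at hi
  | some L =>
    rw [e1] at hi h1
    simp only [Option.getD_some] at hi
    cases e2 : incT.get (tab.app wd t) with
    | none => simp [e2] at h1
    | some M =>
      simp only [e2, List.all_eq_true, List.any_eq_true, Nat.beq_eq] at h1
      obtain ⟨j, hj, e⟩ := h1 i hi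
      simpa [← e] using hj

theorem meet_spec (i : Fin 693) : ∃ a b : Fin tab.size, (i : ℕ) ∈ inc a ∧ (i : ℕ) ∈ inc b ∧
    ∀ j : ℕ, j ∈ inc a → j ∈ inc b → j = i := by
  have h := List.all_eq_true.1 meet_all i (List.mem_range.2 i.2)
  simp only [meetOK, Bool.and_eq_true, decide_eq_true_eq] at h
  obtain ⟨⟨ha, hb⟩, h⟩ := h
  refine ⟨⟨_, ha⟩, ⟨_, hb⟩, ?_⟩
  simp only [inc]
  revert h
  split
  · rename_i L M e1 e2
    intro h
    simp only [Bool.and_eq_true, List.any_eq_true, List.all_eq_true, Nat.beq_eq, Bool.or_eq_true,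
      Bool.not_eq_true', List.any_eq_false] at h
    obtain ⟨⟨⟨j, hj, rfl⟩, ⟨k, hk, hk'⟩⟩, hall⟩ := h
    rw [e1, e2]
    exact ⟨hj, hk' ▸ hk, fun j hjL hjM => (hall j hjL).resolve_right fun hn => hn j hjM rfl⟩
  · intro h; simp at h

theorem joint_iso : Nonempty (↥joint ≃* Cfsg.PSU 6 Cfsg.Agent.Lib.SporPres.He.Four 2) := by
  haveI := stabU_simple
  obtain ⟨φ, -, hmem, hbase⟩ := exists_based_rep tab good vecs.get orbit_ok (by decide +kernel) vecs_getD perm_all moved
    (MulAction.stabilizer ↥Co0 uVec) (fun g hg => SporOutCo2.gens_fix g hg) (x := xVec) rfl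
    (by show sqNorm (toVec start) ≤ 64; rw [SporOutCo2.start_facts.1]; norm_num) (dotSet uVec 16) ncard_pts xVec_mem
    (fun k hk y hy => smul_dotSet k hk hy)
  let ψ : ↥joint →* Equiv.Perm (Fin tab.size) := φ.comp (Subgroup.inclusion inf_le_left)
  let R : Equiv.Perm (Fin 693) → ↥joint → Prop := fun p g =>
    ∀ (t : Fin tab.size) (i : Fin 693), (i : ℕ) ∈ inc t → ((p i : Fin 693) : ℕ) ∈ inc (ψ g t)
  have hone : R 1 1 := fun t i h => by rw [map_one]; exact h
  have hmulR : ∀ p g q h, R p g → R q h → R (p * q) (g * h) := fun p g q h h1 h2 t i hi => by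
    rw [map_mul]; exact h1 _ _ (h2 t i hi)
  have huniq : ∀ p, R p 1 → p = 1 := fun p hp => by
    refine Equiv.ext fun i => Fin.ext ?_
    obtain ⟨a, b, ha, hb, hab⟩ := meet_spec i
    have h1 := hp a i ha
    have h2 := hp b i hb
    rw [map_one] at h1 h2
    exact hab _ h1 h2
  have hgen : ∀ g : Fin 8, ∃ k : ↥joint, R (Unit.tabU.perm Unit.goodU g) k := by
    intro g
    have hok := List.all_eq_true.1 tvW_ok g (List.mem_range.2 g.2)
    simp only [Bool.and_eq_true, List.all_eq_true, decide_eq_true_eq, Nat.beq_eq] at hok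
    have hev : ev (tab.perm good) (tvW g) ∈ φ.range := by
      refine Subgroup.list_prod_mem _ fun q hq => ?_
      obtain ⟨a, ha, rfl⟩ := List.mem_map.1 hq
      exact hmem a (hok.1 a ha)
    obtain ⟨k, hk⟩ := hev
    have h0 : 0 < tab.size := by show 0 < 4600; norm_num
    have hkx : (k : ↥Co0) • xVec = xVec := hbase h0 k (Fin.ext (by
      rw [hk, Tab.ev_perm_apply good _ hok.1]; exact hok.2))
    refine ⟨⟨(k : ↥Co0), k.2, hkx⟩, fun t i hi => ?_⟩
    have hm : matchOK g (tvW g) = true := by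
      fin_cases g
      exacts [match0, match1, match2, match3, match4, match5, match6, match7]
    show ((Unit.tabU.perm Unit.goodU g i : Fin 693) : ℕ) ∈ inc (φ ⟨(k : ↥Co0), k.2⟩ t)
    rw [show φ ⟨(k : ↥Co0), k.2⟩ = φ k from rfl, hk, Tab.ev_perm_apply good _ hok.1, Tab.perm,
      dif_pos (show (g : ℕ) < Unit.tabU.gens from g.2)]
    exact match_spec hm t t.2 i hi
  choose k hk using hgen
  haveI : Finite ↥joint := Nat.finite_of_card_ne_zero (by rw [card_joint]; norm_num)
  set Γ : Subgroup (Equiv.Perm (Fin 693) × ↥joint) :=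
    Subgroup.closure (Set.range fun g : Fin 8 => (Unit.tabU.perm Unit.goodU g, k g)) with hΓ
  have hR : ∀ x ∈ Γ, R x.1 x.2 := by
    intro x hx
    rw [hΓ, ← Subgroup.mem_toSubmonoid, Subgroup.closure_toSubmonoid_of_finite] at hx
    induction hx using Submonoid.closure_induction with
    | mem y hy => obtain ⟨g, rfl⟩ := hy; exact hk g
    | one => exact hone
    | mul y z _ _ iy iz => exact hmulR _ _ _ _ iy iz
  let f₁ : ↥Γ →* Equiv.Perm (Fin 693) := (MonoidHom.fst _ _).comp Γ.subtype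
  let f₂ : ↥Γ →* ↥joint := (MonoidHom.snd _ _).comp Γ.subtype
  have h2 : Function.Injective f₂ := by
    rw [injective_iff_map_eq_one]
    rintro ⟨⟨p, g⟩, hx⟩ h
    obtain rfl : g = 1 := h
    obtain rfl := huniq p (hR _ hx)
    rfl
  have h1 : f₁.range = Unit.move.range := by
    rw [Unit.move_range.1, MonoidHom.range_eq_map, ← Subgroup.map_map, ← MonoidHom.range_eq_map,
      Subgroup.range_subtype, hΓ, MonoidHom.map_closure, ← Set.range_comp]
    refine congrArg Subgroup.closure (Set.ext fun q => ⟨?_, ?_⟩)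
    · rintro ⟨g, rfl⟩; exact ⟨g, g.2, rfl⟩
    · rintro ⟨g, hg, rfl⟩; exact ⟨⟨g, hg⟩, rfl⟩
  have hN := Unit.move_range.2
  have hJ := card_joint
  have c1 : Nat.card ↥f₁.range ≤ Nat.card ↥Γ := Nat.card_le_card_of_surjective _ f₁.rangeRestrict_surjective
  rw [h1] at c1
  have c2 : Nat.card ↥Γ ≤ Nat.card ↥joint := Nat.card_le_card_of_injective _ h2
  have b2 : Function.Bijective f₂ := (Nat.bijective_iff_injective_and_card _).2 ⟨h2, by omega⟩
  have b1 : Function.Bijective f₁.rangeRestrict := (Nat.bijective_iff_surjective_and_card _).2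
    ⟨f₁.rangeRestrict_surjective, by rw [h1]; omega⟩
  exact ⟨(MulEquiv.ofBijective f₂ b2).symm.trans ((MulEquiv.ofBijective f₁.rangeRestrict b1).trans
    ((MulEquiv.subgroupCongr h1).trans Unit.psuEquiv.symm))⟩

theorem main (v w : ↥leechLattice) (hv : sqNorm (v : GolayPt → ℤ) = 32) (hw : sqNorm (w : GolayPt → ℤ) = 32)
    (hd : dotInt (v : GolayPt → ℤ) (w : GolayPt → ℤ) = -16) (F : Type) [Field F] [Fintype F]
    (hF : Fintype.card F = 4) :
    Nonempty (↥(MulAction.stabilizer ↥Co0 v ⊓ MulAction.stabilizer ↥Co0 w) ≃* Cfsg.PSU 6 F 2) := by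
  obtain ⟨c, hc⟩ := trans_min (v := v) (w := uVec) hv uVec_facts.1
  have hmem : -(c • w) ∈ dotSet uVec 16 := by
    refine ⟨?_, ?_⟩
    · rw [show ((-(c • w) : ↥leechLattice) : GolayPt → ℤ) = -((c • w : ↥leechLattice) : GolayPt → ℤ) from rfl]
      rw [show sqNorm (-((c • w : ↥leechLattice) : GolayPt → ℤ)) = sqNorm ((c • w : ↥leechLattice) : GolayPt → ℤ) by
        simp [sqNorm], Same.sqNorm_eq (x := w) ⟨c, rfl⟩, hw]
    · rw [show ((-(c • w) : ↥leechLattice) : GolayPt → ℤ) = -((c • w : ↥leechLattice) : GolayPt → ℤ) from rfl,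
        show dotInt (uVec : GolayPt → ℤ) (-((c • w : ↥leechLattice) : GolayPt → ℤ)) =
          - dotInt (uVec : GolayPt → ℤ) ((c • w : ↥leechLattice) : GolayPt → ℤ) by simp [dotInt],
        ← hc, dot_smul, hd]
      norm_num
  obtain ⟨k, hk, hkx⟩ := fills _ hmem
  set d : ↥Co0 := k⁻¹ * c
  have hdv : d • v = uVec := by
    rw [mul_smul, hc, inv_smul_eq_iff]; exact hk.symm
  have hdw : d • w = -xVec := by
    rw [mul_smul, inv_smul_eq_iff, smul_neg', hkx, neg_neg]
  have himg : (MulAction.stabilizer ↥Co0 v ⊓ MulAction.stabilizer ↥Co0 w).map (MulAut.conj d).toMonoidHom = joint := by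
    rw [Subgroup.map_inf _ _ _ (MulAut.conj d).injective, ← MulAction.stabilizer_smul_eq_stabilizer_map_conj,
      ← MulAction.stabilizer_smul_eq_stabilizer_map_conj, hdv, hdw]
    ext g
    simp only [Subgroup.mem_inf, MulAction.mem_stabilizer_iff, smul_neg', neg_inj]
  obtain ⟨e⟩ := joint_iso
  have e4 : Cfsg.Agent.Lib.SporPres.He.Four ≃+* F :=
    FiniteField.ringEquivOfCardEq (by rw [hF, Unit.card_four]; norm_num)
  obtain ⟨e'⟩ := Cfsg.Agent.Lib.Classical.UnitaryFourThree.PSU_congr e4 6 2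
  exact ⟨(((MulAction.stabilizer ↥Co0 v ⊓ MulAction.stabilizer ↥Co0 w).equivMapOfInjective _
    (MulAut.conj d).injective).trans (MulEquiv.subgroupCongr himg)).trans (e.trans e')⟩

end Cfsg.Agent.Lib.CoTwoUnitary
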